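import Cfsg.Agent.Lib.Asch.SmallU

/-! A unitary form together with a compatible bilinear form: subfield structures in `SU₄` and `SU₆`. -/

set_option autoImplicit false
set_option linter.unusedSectionVars false

namespace Cfsg.Lib.Asch

open scoped MatrixGroups Matrix Kronecker commutatorElement
open Cfsg.Geo Cfsg.Lib.Core Module

variable {ι : Type} [Fintype ι] [DecidableEq ι] {F : Type*} [Field F] [Fintype F] {σ σ' : F →+* F}
  {ε ε' : F} {f ω : (ι → F) → (ι → F) → F} {H Ω : Subgroup (GL ι F)} {q : ℕ}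

theorem SForm.exists_tau (h : SForm σ ε f) (h' : SForm σ' ε' ω) (y : ι → F) : ∃ z, ∀ x, f x z = ω x y :=
  ⟨σ ∘ ((gramMatrix f)⁻¹ *ᵥ gramMatrix ω *ᵥ (σ' ∘ y)), fun x => by
    rw [h.eq_dot, h.comp_comp, Matrix.mulVec_mulVec, Matrix.mul_nonsing_inv _ (Ne.isUnit h.det_ne), Matrix.one_mulVec,
      h'.eq_dot]⟩

theorem SForm.comm_of_tau (h : SForm σ ε f) (h' : SForm σ' ε' ω) {c : F} (hc : c ≠ 0)
    (h1 : ∀ y, ∃ z, (∀ x, f x z = ω x y) ∧ ∀ x, ω x z = c * f x y) (X : Matrix ι ι F) :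
    adj σ f (adj σ' ω X) = adj σ' ω (adj σ f X) := by
  choose τ h1 h2 using h1
  have h3 : ∀ X y, adj σ f X *ᵥ τ y = τ (adj σ' ω X *ᵥ y) := fun X y => h.ext_right fun x => by
    rw [← h.adj_spec, h1, h1, h'.adj_spec]
  have h4 : ∀ X y, adj σ' ω X *ᵥ τ y = τ (adj σ f X *ᵥ y) := fun X y => h'.ext_right fun x => by
    rw [← h'.adj_spec, h2, h2, h.adj_spec]
  refine mat_ext_mulVec fun v => ?_
  obtain ⟨y, rfl⟩ : ∃ y, τ y = v := ⟨τ ((σ c)⁻¹ • v), h.ext_right fun x => by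
    rw [h1, h2, h.smul_right, map_inv₀, h.invol, mul_inv_cancel_left₀ hc]⟩
  rw [h3, h4, h.isAdj.invol, h'.isAdj.invol]

theorem uBase_of_tau (hσ : Unitary.IsBar q σ) (hA : Amb Ω) (hM : IsMaximalIn Ω H) (h : SForm σ 1 f)
    (hs : H ≤ similarityGroup f) (hH : Irr H) (h' : SForm (RingHom.id F) ε' ω) (hs' : H ≤ similarityGroup ω) {c : F}
    (hc : c ≠ 0) (h1 : ∀ y, ∃ z, (∀ x, f x z = ω x y) ∧ ∀ x, ω x z = c * f x y) : UBase q f Ω H := by
  have := hA.ne
  obtain ⟨P, ζ, h2, h3, h4⟩ := h.exists_subfield_of_adj hσ.exists_ne hs h'.isAdj h'.trace_adj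
    (fun g hg => h'.adj_cj (hs' hg)) (h.comm_of_tau h' hc h1)
  exact uBase_of_subData hσ hA hM h hs hH ⟨Nat.prime_two, by rw [hσ.card_fixedField, hσ.card], h2, h3, h4⟩

theorem IsBar.sq_eq_one (hσ : Unitary.IsBar q σ) (hq : q ≤ 3) {a : F} (h0 : a ≠ 0) (h : σ a = a) : a ^ 2 = 1 := by
  have h2 := two_le_of_isBar hσ
  rw [hσ.eq] at h
  apply mul_left_cancel₀ h0
  interval_cases q
  · linear_combination (a + 1) * h
  · linear_combination h

theorem uBase_of_pair (hσ : Unitary.IsBar q σ) (hq : q ≤ 3) (hA : Amb Ω) (hM : IsMaximalIn Ω H) (h : SForm σ 1 f)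
    (hΩ : Ω ≤ iso f ⊓ specialLinear ι F) (hH : Irr H) {D : Fin 2 → Submodule F (ι → F)} (hD : IsMDecomposition 2 D)
    (hts : ∀ i, IsTotallySingularFor f (D i)) (hs : H ≤ decompositionStabilizer D) : UBase q f Ω H := by
  obtain ⟨e, P, hb⟩ := exists_blocks hD
  have hw : ∀ i y, bv e P i y = y 0 • bv e P i (Pi.single 0 1) + y 1 • bv e P i (Pi.single 1 1) := fun i y => by
    rw [bv, bv, bv, ← pvec_smul_left, ← pvec_smul_left, ← pvec_add_left]
    congr 1
    funext j; fin_cases j <;> simp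
  have h0 : ∀ i x y, f (bv e P i x) (bv e P i y) = 0 := fun i x y => hts i _ ((hb _ _).2 ⟨_, rfl⟩) _ ((hb _ _).2 ⟨_, rfl⟩)
  obtain ⟨M, hM'⟩ : ∃ M : Matrix (Fin 2) (Fin 2) F, ∀ i j, f (bv e P 0 (Pi.single i 1)) (bv e P 1 (Pi.single j 1)) = M i j :=
    ⟨fun i j => _, fun _ _ => rfl⟩
  have h1 : ∀ x y, f (bv e P 0 x) (bv e P 1 y) = x ⬝ᵥ M *ᵥ (σ ∘ y) := fun x y => by
    rw [hw 0, hw 1]
    simp [h.add_left, h.add_right, h.smul_left, h.smul_right, hM', Matrix.mulVec, dotProduct]; ring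
  have h1' : ∀ x y, f (bv e P 1 x) (bv e P 0 y) = x ⬝ᵥ (M.map σ)ᵀ *ᵥ (σ ∘ y) := fun x y => by
    rw [h.herm, h1]
    simp [Matrix.mulVec, dotProduct, h.invol]; ring
  have h2 : ∀ v, ∃ x y, v = bv e P 0 x + bv e P 1 y := fun v => by
    obtain ⟨a, ha, b, hb', h3⟩ := Submodule.mem_sup.1 ((show iSup D ≤ D 0 ⊔ D 1 from
      iSup_le (Fin.forall_fin_two.2 ⟨le_sup_left, le_sup_right⟩)) (hD.iSup_eq_top.ge (Submodule.mem_top (x := v))))
    obtain ⟨x, rfl⟩ := (hb _ _).1 ha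
    obtain ⟨y, rfl⟩ := (hb _ _).1 hb'
    exact ⟨x, y, h3.symm⟩
  have hc : ∀ y : Fin 2 → F, σ ∘ σ ∘ y = y := fun y => funext fun i => h.invol _
  have hδ : M.det ≠ 0 := fun h3 => by
    obtain ⟨y, h4, h5⟩ := Matrix.exists_mulVec_eq_zero_iff.2 h3
    have := mulVec_comp_eq_zero (show bv e P 1 (σ ∘ y) = 0 from h.nondeg _ fun v => by
      obtain ⟨x, z, rfl⟩ := h2 v
      rw [h.add_left, h0, h1, hc, h5, dotProduct_zero, add_zero])
    exact h4 (funext fun i => by simpa [pv] using congrFun this (i, 1))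
  have hδ' : σ M.det ≠ 0 := (map_ne_zero σ).2 hδ
  obtain ⟨ω, hω, h3⟩ := exists_block_form sform_detForm e P (c := ![1, σ M.det])
    (Fin.forall_fin_two.2 ⟨one_ne_zero, hδ'⟩) fun _ => rfl
  have hi := hM.1.le.trans hΩ
  refine uBase_of_tau hσ hA hM h ((hi.trans inf_le_left).trans iso_le_sim) hH hω (fun g hg => ?_) (c := -1)
    (by simp) fun v => ?_
  · obtain ⟨s, a, h4, h5⟩ := hb.stab (hs hg)
    rw [mem_sl.1 (hi hg).2, one_mul, ← Int.cast_pow, ← Units.val_pow_eq_pow_val, Int.units_sq, Fin.prod_univ_two] at h5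
    replace h5 : (a 0).det * (a 1).det = 1 := by simpa using h5.symm
    have key : ∀ N : Matrix (Fin 2) (Fin 2) F, (∀ x y, f (bv e P (s 0) x) (bv e P (s 1) y) = x ⬝ᵥ N *ᵥ (σ ∘ y)) →
        (a 0).det * N.det * σ (a 1).det = M.det := fun N hN => by
      rw [← Matrix.det_transpose, RingHom.map_det, ← Matrix.det_mul, ← Matrix.det_mul]
      congr 1
      ext i j
      rw [← hM', ← (hi hg).1, h4, h4, hN, Matrix.mulVec_single_one, Matrix.mulVec_single_one]
      simp [Matrix.mul_apply, Matrix.mulVec, dotProduct]; ring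
    suffices ∃ c : F, ∀ i, ![1, σ M.det] (s i) * (a i).det = c * ![1, σ M.det] i by
      obtain ⟨c, hc⟩ := this
      refine ⟨Units.mk0 c ?_, hω.sim_of_dec hD.iSup_eq_top fun i j x hx y hy => ?_⟩
      · rintro rfl
        have := hc (s.symm 0)
        rw [s.apply_symm_apply] at this
        exact Finset.prod_ne_zero_iff.1 (by rw [Fin.prod_univ_two, h5]; simp : ∏ i, (a i).det ≠ 0) _
          (Finset.mem_univ _) (by simpa using this)
      obtain ⟨x, rfl⟩ := (hb _ _).1 hx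
      obtain ⟨y, rfl⟩ := (hb _ _).1 hy
      rw [h4, h4, h3, h3]
      by_cases h6 : i = j
      · subst h6
        rw [if_pos rfl, if_pos rfl, detForm_mulVec, ← mul_assoc, hc, mul_assoc, Units.val_mk0]
      · simp [h6]
    have d1 := right_ne_zero_of_mul_eq_one h5
    obtain ⟨s0, s1⟩ | ⟨s0, s1⟩ : s 0 = 0 ∧ s 1 = 1 ∨ s 0 = 1 ∧ s 1 = 0 := by generalize s = s; revert s; decide
    · have h6 := key M (by rw [s0, s1]; exact h1)
      have h7 := IsBar.sq_eq_one hσ hq d1 (mul_left_cancel₀ hδ (by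
        linear_combination (a 1).det * h6 - M.det * σ (a 1).det * h5))
      refine ⟨(a 0).det, Fin.forall_fin_two.2 ⟨by simp [s0], ?_⟩⟩
      simp only [s1, Matrix.cons_val_one, Matrix.cons_val_zero]
      linear_combination σ M.det * (a 0).det * h7 - σ M.det * (a 1).det * h5
    · have h6 := key _ (by rw [s0, s1]; exact h1')
      rw [Matrix.det_transpose, ← RingHom.mapMatrix_apply, ← RingHom.map_det] at h6
      have h7 := IsBar.sq_eq_one hσ hq (mul_ne_zero d1 hδ) (by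
        rw [map_mul]; linear_combination (a 1).det * h6 - σ M.det * σ (a 1).det * h5)
      have h8 := IsBar.sq_eq_one hσ hq (mul_ne_zero hδ hδ') (by rw [map_mul, h.invol, mul_comm])
      refine ⟨σ M.det * (a 0).det, Fin.forall_fin_two.2 ⟨by simp [s0], mul_left_cancel₀ (pow_ne_zero 2 hδ) ?_⟩⟩
      simp only [s1, Matrix.cons_val_one, Matrix.cons_val_zero]
      linear_combination (a 0).det * h7 - (a 0).det * h8 - M.det ^ 2 * (a 1).det * h5
  · obtain ⟨y, z, rfl⟩ := h2 v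
    refine ⟨bv e P 0 ![M 1 1 * σ (z 1) + M 1 0 * σ (z 0), -(M 0 1 * σ (z 1) + M 0 0 * σ (z 0))] +
      bv e P 1 (σ ∘ ![(M 1 1 * y 1 + M 0 1 * y 0) / M.det, -(M 1 0 * y 1 + M 0 0 * y 0) / M.det]), fun v => ?_, fun v => ?_⟩
    all_goals
      obtain ⟨x, x', rfl⟩ := h2 v
      simp only [h.add_left, h.add_right, hω.add_left, hω.add_right, h0, h1, h1', h3, hc]
      simp only [Matrix.mulVec, dotProduct, Fin.sum_univ_two, detForm, Function.comp_apply, Matrix.transpose_apply,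
        Matrix.map_apply, Matrix.cons_val_zero, Matrix.cons_val_one, map_add, map_mul, map_neg, map_div₀, h.invol,
        if_true, zero_ne_one, one_ne_zero, if_false]
      field_simp
      try simp only [Matrix.det_fin_two]
      try simp only [map_sub, map_mul]
      ring

end Cfsg.Lib.Asch
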