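import Cfsg.Agent.Lib.Asch.Tau
import Cfsg.Agent.Lib.Asch.Singer
import Cfsg.Agent.Lib.Linear.MaxField2

/-! The normaliser of a cubic field in `SU₆(2)` lies in a subfield subgroup. -/

set_option autoImplicit false
set_option linter.unusedSectionVars false

namespace Cfsg.Lib.Asch

open scoped MatrixGroups Matrix
open Cfsg.Geo Cfsg.Lib.Core Module Cfsg.Lib.Linear

variable {ι : Type} [Fintype ι] [DecidableEq ι] {F : Type*} [Field F] [Fintype F] {σ : F →+* F} {ε : F}
  {f ω : (ι → F) → (ι → F) → F} {H Ω : Subgroup (GL ι F)} {q : ℕ}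

theorem SForm.det_adj (h : SForm σ ε f) (X : Matrix ι ι F) : (adj σ f X).det = σ X.det := by
  have := congrArg Matrix.det (h.gram_adj X)
  rw [Matrix.det_mul, Matrix.det_mul, Matrix.det_transpose, mul_comm, ← RingHom.mapMatrix_apply, ← RingHom.map_det] at this
  rw [mul_left_cancel₀ h.det_ne this, h.invol]

variable {K : Type*} [Field K] [Algebra F K] [Module K (ι → F)] [IsScalarTower F K (ι → F)] [Finite K]

/-- the determinant form of a `K`-basis -/
noncomputable def kdet (b : Basis (Fin 2) K (ι → F)) (x y : ι → F) : K := detForm K (b.repr x) (b.repr y)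

/-- its traces -/
noncomputable def kform (b : Basis (Fin 2) K (ι → F)) (μ : K) (x y : ι → F) : F := Algebra.trace F K (μ * kdet b x y)

variable {b : Basis (Fin 2) K (ι → F)} {μ : K}

theorem eq_zero_of_trace {a : K} (h : ∀ k, Algebra.trace F K (k * a) = 0) : a = 0 :=
  (traceForm_nondegenerate F K).2 a h

theorem kdet_smul (k : K) (x y : ι → F) : kdet b (k • x) y = k * kdet b x y := by simp [kdet, detForm]; ring

theorem kdet_smul' (k : K) (x y : ι → F) : kdet b x (k • y) = k * kdet b x y := by simp [kdet, detForm]; ring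

theorem kform_smul (k : K) (x y : ι → F) : kform b μ (k • x) y = kform b (μ * k) x y := by
  rw [kform, kdet_smul, kform, mul_assoc]

theorem kform_smul' (k : K) (x y : ι → F) : kform b μ x (k • y) = kform b μ (k • x) y := by
  rw [kform, kdet_smul', kform, kdet_smul]

theorem sform_kform (hμ : μ ≠ 0) : SForm (RingHom.id F) (-1) (kform b μ) where
  add_left x y v := by rw [kform, kform, kform, ← map_add]; congr 1; simp [kdet, detForm]; ring
  smul_left c x v := by
    rw [kform, kform, ← smul_eq_mul c, ← map_smul, ← algebraMap_smul K, kdet_smul, Algebra.smul_def]; ring_nf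
  herm u v := by rw [kform, kform, RingHom.id_apply, neg_one_mul, ← map_neg]; congr 1; simp [kdet, detForm]; ring
  nondeg v hv := by
    have h1 : ∀ x, kdet b x v = 0 := fun x => (mul_eq_zero.1 (eq_zero_of_trace (F := F) fun k => by
      rw [← hv (k • x), kform, kdet_smul]; ring_nf)).resolve_left hμ
    have h2 := h1 (b 0)
    have h3 := h1 (b 1)
    simp [kdet, detForm] at h2 h3
    exact b.repr.injective (Finsupp.ext (Fin.forall_fin_two.2 ⟨by simpa using h3, by simpa using h2⟩))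
  invol _ := rfl
  eps := by simp

theorem kform_semi [Nonempty ι] (hμ : μ ≠ 0) {g : GL ι F} (hg : g ∈ semiGL K) :
    ∃ l : K, (∀ x y, kform b μ (g.1 *ᵥ x) (g.1 *ᵥ y) = kform b μ (l • x) y) ∧
      g.1.det ^ 2 = Algebra.norm F (l ^ 2) := by
  choose ψ hψ using hg.1
  have h0 : g.1 *ᵥ b 0 ≠ 0 := fun h => b.ne_zero 0 (GL_mulVec_injective g (h.trans (Matrix.mulVec_zero _).symm))
  have h1 : ∀ {k l : K}, k • g.1 *ᵥ b 0 = l • g.1 *ᵥ b 0 → k = l := fun h => smul_left_injective K h0 h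
  let ψ' : K →ₐ[F] K :=
    { toFun := ψ
      map_one' := h1 (by rw [← hψ, one_smul, one_smul])
      map_mul' := fun k l => h1 (by rw [← hψ, mul_smul, hψ, hψ, mul_smul])
      map_zero' := h1 (by rw [← hψ, zero_smul, zero_smul, Matrix.mulVec_zero])
      map_add' := fun k l => h1 (by rw [← hψ, add_smul, add_smul, Matrix.mulVec_add, hψ, hψ])
      commutes' := fun c => h1 (by rw [← hψ, algebraMap_smul, algebraMap_smul, Matrix.mulVec_smul]) }
  let e := AlgEquiv.ofBijective ψ' (Finite.injective_iff_bijective.1 ψ'.injective)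
  have he : ∀ k x, g.1 *ᵥ (k • x) = e k • g.1 *ᵥ x := hψ
  have h2 : ∀ x y, kdet b (g.1 *ᵥ x) (g.1 *ᵥ y) = kdet b (g.1 *ᵥ b 0) (g.1 *ᵥ b 1) * e (kdet b x y) := fun x y => by
    conv_lhs => rw [← b.sum_repr x, ← b.sum_repr y, Fin.sum_univ_two, Fin.sum_univ_two, Matrix.mulVec_add,
      Matrix.mulVec_add, he, he, he, he]
    simp [kdet, detForm]; ring
  obtain ⟨l, hl⟩ := e.surjective (μ * kdet b (g.1 *ᵥ b 0) (g.1 *ᵥ b 1))
  have h3 : ∀ x y, kform b μ (g.1 *ᵥ x) (g.1 *ᵥ y) = kform b μ ((l / μ) • x) y := fun x y => by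
    rw [kform_smul, mul_div_cancel₀ _ hμ, kform, h2, ← mul_assoc, ← hl, ← map_mul, Algebra.trace_eq_of_algEquiv, kform]
  refine ⟨_, h3, ?_⟩
  have h4 := sform_kform (F := F) (b := b) hμ
  have h5 : Matrix.toLin' (adj (RingHom.id F) (kform b μ) g.1 * g.1) =
      ((l / μ) • (LinearMap.id : (ι → F) →ₗ[K] ι → F)).restrictScalars F := LinearMap.ext fun x => h4.ext_left fun y => by
    rw [Matrix.toLin'_apply, ← Matrix.mulVec_mulVec, ← h4.adj_spec', h3]; rfl
  have := congrArg LinearMap.det h5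
  rwa [LinearMap.det_toLin', Matrix.det_mul, h4.det_adj, LinearMap.det_restrictScalars, LinearMap.det_smul,
    LinearMap.det_id, mul_one, finrank_eq_card_basis b, RingHom.id_apply, ← sq] at this

theorem exists_tau_kform (h : SForm σ 1 f) {φ : K →+* K} (hφ : ∀ k x y, f (k • x) y = f x (φ k • y)) (μ : K) (hμ : μ ≠ 0) :
    ∃ (τ : (ι → F) → ι → F) (ν : K), (∀ x y, f x (τ y) = kform b μ x y) ∧ (∀ k y, τ (k • y) = φ k • τ y) ∧
      ν ≠ 0 ∧ φ ν = ν ∧ ∀ x, τ (τ x) = ν • x := by
  have hω := sform_kform (F := F) (b := b) hμ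
  choose τ h1 using h.exists_tau hω
  have h2 : ∀ k y, τ (k • y) = φ k • τ y := fun k y => h.ext_right fun x => by rw [h1, kform_smul', ← hφ, h1]
  have h3 : ∀ x y, τ (x + y) = τ x + τ y := fun x y => h.ext_right fun z => by
    rw [h.add_right, h1, h1, h1, hω.add_right]
  have h4 : ∀ x, τ x = 0 → x = 0 := fun x hx => hω.nondeg x fun y => by rw [← h1, hx, h.zero_right]
  have h0 : ∀ {k l : K} {x : ι → F}, x ≠ 0 → k • x = l • x → k = l := fun h0 h => smul_left_injective K h0 h
  have hφ' : ∀ k, φ (φ k) = k := fun k => h0 (b.ne_zero 0) (h.ext_right fun x => by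
    rw [← hφ, h.herm, ← hφ, ← h.herm])
  have h5 : ∀ x, kdet b x (τ (τ x)) = 0 := fun x => (mul_eq_zero.1 (eq_zero_of_trace (F := F) fun k => by
    have : kform b μ (k • x) (τ (τ x)) = 0 := by
      rw [hω.map_eq_zero, ← h1, h2, h.map_eq_zero, h1, kform, kdet_smul]; simp [kdet, detForm, mul_comm]
    rw [← this, kform, kdet_smul]; ring_nf)).resolve_left hμ
  have h6 := h5 (b 0)
  have h7 := h5 (b 1)
  have h8 := h5 (b 0 + b 1)
  rw [h3, h3] at h8
  simp [kdet, detForm] at h6 h7 h8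
  have h9 : ∀ x, τ (τ x) = b.repr (τ (τ (b 0))) 0 • x := fun x => by
    conv_lhs => rw [← b.sum_repr x, Fin.sum_univ_two, h3, h3, h2, h2, h2, h2, hφ', hφ']
    refine b.repr.injective (Finsupp.ext (Fin.forall_fin_two.2 ⟨?_, ?_⟩))
    · simp [h7, mul_comm]
    · simp only [map_add, map_smul, Finsupp.add_apply, Finsupp.smul_apply, smul_eq_mul]
      linear_combination b.repr x 0 * h6 + b.repr x 1 * (h8 - h6 + h7)
  refine ⟨τ, _, fun x y => h1 y x, h2, fun h => b.ne_zero 0 (h4 _ (h4 _ (by rw [h9, h, zero_smul]))),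
    h0 (fun h => b.ne_zero 0 (h4 _ h)) (by rw [← h2, ← h9, ← h9]), h9⟩

theorem uBase_of_semiGL (hσ : Unitary.IsBar 2 σ) (hA : Amb Ω) (hM : IsMaximalIn Ω H) (h : SForm σ 1 f)
    (hΩ : Ω ≤ iso f ⊓ specialLinear ι F) (hH : Irr H) (hr : finrank F K = 3) (hn : Fintype.card ι = 6) {φ : K →+* K}
    (hφ : ∀ k x y, f (k • x) y = f x (φ k • y)) (h8 : ∀ k, φ k = k ^ 8) (hs : H ≤ semiGL K) : UBase 2 f Ω H := by
  have := hA.ne
  have : Module.Finite K (ι → F) := .of_restrictScalars_finite F K _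
  have h2 : finrank K (ι → F) = 2 := by
    have := finrank_mul_finrank F K (ι → F)
    rw [hr, finrank_fintype_fun_eq_card, hn] at this
    omega
  let b := finBasisOfFinrankEq K (ι → F) h2
  obtain ⟨τ₀, ν, k1, k2, k3, k4, k5⟩ := exists_tau_kform (b := b) h hφ 1 one_ne_zero
  have k6 : ν ^ 7 = 1 := mul_left_cancel₀ k3 (by rw [← pow_succ', ← h8, k4, mul_one])
  obtain ⟨τ, h1, h3, h4⟩ : ∃ τ : (ι → F) → ι → F, (∀ x y, f x (τ y) = kform b (ν ^ 3) x y) ∧
      (∀ k y, τ (k • y) = φ k • τ y) ∧ ∀ x, τ (τ x) = x :=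
    ⟨fun y => φ (ν ^ 3) • τ₀ y, fun x y => by rw [← hφ, k1, kform_smul, one_mul],
      fun k y => by beta_reduce; rw [k2, smul_comm], fun x => by
        beta_reduce
        rw [k2, k5, map_pow, k4, map_pow, k4, smul_smul, smul_smul, ← pow_add, ← pow_succ, k6, one_smul]⟩
  have hω := sform_kform (F := F) (b := b) (pow_ne_zero 3 k3)
  have hi := hM.1.le.trans hΩ
  refine uBase_of_tau hσ hA hM h ((hi.trans inf_le_left).trans iso_le_sim) hH hω (fun g hg => ?_) one_ne_zero
    fun y => ⟨τ y, fun x => h1 x y, fun x => by rw [← h1, h4, one_mul]⟩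
  obtain ⟨l, h5, h6⟩ := kform_semi (b := b) (pow_ne_zero 3 k3) (hs hg)
  have h7 : ∀ y, τ (g.1 *ᵥ y) = g.1 *ᵥ (φ l • τ y) := fun y => h.ext_right fun x => by
    obtain ⟨x, rfl⟩ : ∃ z, g.1 *ᵥ z = x := ⟨_, mulVec_inv_mulVec _ x⟩
    rw [h1, h5, (hi hg).1, ← hφ, h1]
  have h9 : l ^ 72 = 1 := smul_left_injective K (b.ne_zero 0) (GL_mulVec_injective g (by
    have := h4 (g.1 *ᵥ b 0)
    rw [h7, h7, h3, h4, smul_smul, h8, h8] at this
    simpa [← pow_mul, ← pow_add] using this))
  have hF : Nat.card F = 4 := hσ.card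
  have hK : Nat.card K = 64 := by rw [Module.natCard_eq_pow_finrank (K := F), hr, hF]; rfl
  have h10 : l ^ 42 = 1 := by
    have := FiniteField.algebraMap_norm_eq_pow (K := F) (x := l ^ 2)
    rwa [← h6, mem_sl.1 (hi hg).2, hF, hK, one_pow, map_one, ← pow_mul, eq_comm] at this
  have h11 : l ≠ 0 := by rintro rfl; simp at h10
  have h12 : l ^ 63 = 1 := by
    have := Fintype.ofFinite K
    rw [← FiniteField.pow_card_sub_one_eq_one l h11, ← Nat.card_eq_fintype_card, hK]
  have h13 : l ^ 3 = 1 := by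
    have := pow_gcd_eq_one.2 ⟨h9, pow_gcd_eq_one.2 ⟨h10, h12⟩⟩
    simpa using this
  obtain ⟨a, ha⟩ := hσ.exists_ne
  have h14 : a ^ 2 + a + 1 = 0 := mul_left_cancel₀ (sub_ne_zero.2 ha) (by
    have := hσ.invol a
    simp only [hσ.eq] at this ⊢
    linear_combination this)
  obtain ⟨c, rfl⟩ : ∃ c, algebraMap F K c = l := by
    have h15 := congrArg (algebraMap F K) h14
    simp only [map_add, map_pow, map_one, map_zero] at h15
    rcases mul_eq_zero.1 (show (1 - l) * ((algebraMap F K a - l) * (-algebraMap F K a - 1 - l)) = 0 by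
      linear_combination -h13 + (l - 1) * h15) with h | h
    · exact ⟨1, by rw [map_one, sub_eq_zero.1 h]⟩
    · rcases mul_eq_zero.1 h with h | h
      · exact ⟨a, sub_eq_zero.1 h⟩
      · exact ⟨-a - 1, by simpa using sub_eq_zero.1 h⟩
  exact ⟨Units.mk0 c (by simpa using h11), fun x y => by rw [h5, algebraMap_smul, hω.smul_left, Units.val_mk0]⟩

theorem uBase_of_fld (hσ : Unitary.IsBar 2 σ) (hA : Amb Ω) (hM : IsMaximalIn Ω H) (h : SForm σ 1 f)
    (hΩ : Ω ≤ iso f ⊓ specialLinear ι F) (hH : Irr H) (hn : Fintype.card ι = 6) {K : Subalgebra F (Matrix ι ι F)}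
    (hK : IsFieldSubalgebra 3 K) (ha : IsAdjointClosedFor f K) (hs : H ≤ subalgebraNormalizer K) : UBase 2 f Ω H := by
  have := hA.ne
  let _ := (isField_of_isFieldSubalgebra hK).toField
  rw [subalgebraNormalizer_eq hK] at hs
  let φ := h.isAdj.resHom K hK.comm (h.isAdjointClosedFor.1 ha)
  have hφ : ∀ c : F, φ (algebraMap F K c) = algebraMap F K (σ c) := fun c => Subtype.ext (by
    change adj σ f (algebraMap F _ c) = algebraMap F _ (σ c)
    rw [Algebra.algebraMap_eq_smul_one, h.isAdj.smul_one, Algebra.algebraMap_eq_smul_one])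
  obtain ⟨a, ha⟩ := hσ.exists_ne
  obtain ⟨q', hq⟩ := Unitary.exists_isBar_of_invol (σ := φ)
    (fun h1 => ha ((algebraMap F K).injective (by rw [← hφ, h1]; rfl))) fun x => Subtype.ext (h.isAdj.invol x)
  obtain rfl : q' = 8 := by
    have := hq.card
    rw [Module.natCard_eq_pow_finrank (K := F), hK.finrank_eq, hσ.card] at this
    exact (Nat.pow_left_injective two_ne_zero (this.symm.trans (by norm_num)))
  exact uBase_of_semiGL hσ hA hM h hΩ hH hK.finrank_eq hn (φ := φ) (fun k x y => h.adj_spec k x y) hq.eq hs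

end Cfsg.Lib.Asch
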